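import Cfsg.Agent.Forms.OddSpinorTorus
import Cfsg.Agent.KnownB.Unitary.Norm

/-! The norm-one group of a cyclic module with involution contains isometries of non-trivial spinor
norm and determinant one. -/

set_option autoImplicit false

namespace Cfsg.Agent.KnownB.OrthCent

open Module Cfsg.Agent.Forms

universe u v

variable {F : Type u} [Field F] [Fintype F] {R : Type v} [CommRing R] [Algebra F R] [Finite R]
  (φ : R →+* R) (Q : QuadraticForm F R)

theorem exists_spinor_nontrivial (h2 : (2 : F) ≠ 0) (hQ : (QuadraticMap.polarBilin Q).Nondegenerate)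
    (hφ : ∀ x, φ (φ x) = x) (hc : ∀ c : F, φ (algebraMap F R c) = algebraMap F R c) {θ : R}
    (hθ : IsUnit (θ - φ θ)) (hfix : ∀ y, φ y = y → y ≠ 0 → IsUnit y)
    (hadj : ∀ x y w, QuadraticMap.polar Q (x * y) w = QuadraticMap.polar Q y (φ x * w)) [Nontrivial R] :
    ∃ (z : Rˣ) (g : orthGroup Q), (∀ x, (g : R ≃ₗ[F] R) x = (z : R) * x) ∧
      orthDet Q g = 1 ∧ spinor Q h2 g = -1 := by
  classical
  haveI : Module.Finite F R := Module.Finite.of_finite
  haveI := Fintype.ofFinite R
  haveI : Finite Rˣ := Finite.of_injective _ Units.val_injective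
  have h2R : IsUnit (algebraMap F R 2) := (IsUnit.mk0 _ h2).map _
  -- the form in terms of the involution
  let ψ : R →ₗ[F] F := (QuadraticMap.polarBilin Q).flip 1
  have hψ : ∀ s, ψ s = QuadraticMap.polar Q s 1 := fun s => rfl
  have hpol : ∀ x y, QuadraticMap.polar Q x y = ψ (x * φ y) := fun x y => by
    rw [hψ, mul_comm, hadj, hφ, mul_one]
  have hQx : ∀ x, 2 * Q x = ψ (x * φ x) := fun x => by
    rw [← hpol, QuadraticMap.polar_self, two_nsmul, two_mul]
  -- the norm-one group
  let Φ : Rˣ →* Rˣ := Units.map φ.toMonoidHom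
  let N : Subgroup Rˣ := (MonoidHom.id Rˣ * Φ).ker
  have hN : ∀ z : Rˣ, z ∈ N ↔ (z : R) * φ z = 1 := fun z => by
    rw [MonoidHom.mem_ker, Units.ext_iff]; rfl
  obtain ⟨m, hm⟩ := Ideal.exists_maximal R
  haveI := hm
  have hinj : Function.Injective
      (((Ideal.Quotient.mk m).toMonoidHom.comp (Units.coeHom R)).comp N.subtype) := by
    rw [injective_iff_map_eq_one]
    intro z hz
    have h1 : ((z.1 : R) - 1) ∈ m := by
      rw [← Ideal.Quotient.eq_zero_iff_mem, map_sub, map_one, sub_eq_zero]; exact hz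
    set w := (z.1 : R) - 1 with hw
    have hzz := (hN z.1).mp z.2
    have h2' : φ w ∈ m := by
      have e : φ w = -(φ (z.1 : R)) * w := by rw [hw, map_sub, map_one]; linear_combination hzz
      rw [e]; exact m.mul_mem_left _ h1
    have hsum : w + φ w = 0 := by
      by_contra hne
      exact hm.ne_top (Ideal.eq_top_of_isUnit_mem _ (add_mem h1 h2')
        (hfix _ (by rw [map_add, hφ, add_comm]) hne))
    have hprod : w * φ w = 0 := by
      by_contra hne
      exact hm.ne_top (Ideal.eq_top_of_isUnit_mem _ (m.mul_mem_left w h2')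
        (hfix _ (by rw [map_mul, hφ, mul_comm]) hne))
    have hzero : w = 0 := by
      have e : (w + φ w) = w * φ w * (-1) := by rw [hw, map_sub, map_one]; linear_combination hzz
      have hz1 : (z.1 : R) - φ (z.1 : R) = 2 * w := by
        rw [hw, map_sub, map_one] at hsum; linear_combination -hsum
      have hsq : w * w = 0 := by linear_combination w * hsum - hprod
      by_contra hne
      have hjw : φ ((θ - φ θ) * w) = (θ - φ θ) * w := by
        rw [map_mul, map_sub, hφ, show φ w = -w by linear_combination hsum]; ring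
      have hu := hfix _ hjw (fun h => hne ((hθ.mul_right_eq_zero).mp h))
      obtain ⟨-, hwu⟩ := IsUnit.mul_iff.mp hu
      exact hne ((hwu.mul_right_eq_zero).mp hsq)
    exact Subtype.ext (Units.ext (sub_eq_zero.mp hzero))
  haveI : IsCyclic N := isCyclic_of_subgroup_isDomain _ hinj
  obtain ⟨z₀, hz₀⟩ := IsCyclic.exists_generator (α := N)
  set T := Nat.card N with hT
  have hord : orderOf z₀.1 = T := by
    rw [Subgroup.orderOf_coe, orderOf_eq_card_of_forall_mem_zpowers hz₀]
  have hne1 : (-1 : R) ≠ 1 := fun h => h2R.ne_zero (by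
    rw [map_ofNat]; linear_combination -h)
  have hTeven : 2 ∣ T := by
    have h1 : (-1 : Rˣ) ∈ N := (hN _).mpr (by simp)
    have h3 : orderOf (⟨-1, h1⟩ : N) = 2 := by
      rw [← Subgroup.orderOf_coe]
      exact orderOf_eq_prime (by simp) fun h => hne1 (by simpa using congrArg Units.val h)
    exact h3 ▸ orderOf_dvd_natCard _
  have hz0 : (z₀.1 : R) * φ (z₀.1 : R) = 1 := (hN _).mp z₀.2
  -- multiplication by the generator
  let G : R ≃ₗ[F] R := LinearEquiv.ofLinearMap (LinearMap.mulLeft F (z₀.1 : R))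
    (LinearMap.mulLeft F ((z₀.1⁻¹ : Rˣ) : R)) (LinearMap.ext fun x => by simp [← mul_assoc])
    (LinearMap.ext fun x => by simp [← mul_assoc])
  have hG : ∀ x, G x = (z₀.1 : R) * x := fun x => rfl
  have hGQ : ∀ x, Q (G x) = Q x := fun x => by
    refine mul_left_cancel₀ h2 ?_
    rw [hQx, hQx, hG]
    congr 1
    rw [map_mul φ]
    linear_combination (x * φ x) * hz0
  let g : orthGroup Q := ⟨G, (orth_mem_iff _ _).2 hGQ⟩
  refine ⟨z₀.1, g, hG, ?_, ?_⟩
  · obtain ⟨y, hy, hyz⟩ := Unitary.hilbert90 φ hφ hθ hz0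
    let e : R ≃ₗ[F] R := LinearEquiv.ofBijective
      ({ toFun := φ, map_add' := map_add φ, map_smul' := fun c x => by
          rw [Algebra.smul_def, map_mul, hc, ← Algebra.smul_def]; rfl } : R →ₗ[F] R)
      (Function.Involutive.bijective hφ)
    have hconj : LinearMap.mulLeft F (φ y) = (e : R →ₗ[F] R) ∘ₗ LinearMap.mulLeft F y ∘ₗ (e.symm : R →ₗ[F] R) :=
      LinearMap.ext fun x => by
        show φ y * x = φ (y * e.symm x)
        rw [map_mul, show φ (e.symm x) = x from e.apply_symm_apply x]
    have hdet : LinearMap.det (LinearMap.mulLeft F (φ y)) = LinearMap.det (LinearMap.mulLeft F y) := by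
      rw [hconj]; exact LinearMap.det_conj _ _
    have hcomp : LinearMap.mulLeft F (φ y) ∘ₗ LinearMap.mulLeft F (z₀.1 : R) = LinearMap.mulLeft F y :=
      LinearMap.ext fun x => by
        show φ y * ((z₀.1 : R) * x) = y * x
        rw [← mul_assoc, hyz]
    have hy0 : LinearMap.det (LinearMap.mulLeft F y) ≠ 0 :=
      (hy.map (Algebra.norm F)).ne_zero
    have h1 := congrArg LinearMap.det hcomp
    rw [LinearMap.det_comp, hdet] at h1
    refine Units.ext ?_
    rw [orthDet_val, Units.val_one]
    exact mul_left_cancel₀ hy0 (h1.trans (mul_one _).symm)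
  -- the level set
  set c := nonsquare h2 with hcdef
  let X := {x : R // Q x = c}
  let S₀ := {s : R // φ s = s ∧ ψ s = 2 * c}
  have hnorm : ∀ x : X, φ (x.1 * φ x.1) = x.1 * φ x.1 ∧ ψ (x.1 * φ x.1) = 2 * c := fun x =>
    ⟨by rw [map_mul, hφ, mul_comm], by rw [← hQx, x.2]⟩
  have hs0 : ∀ s : S₀, IsUnit s.1 := fun s => hfix _ s.2.1 fun h => by
    have := s.2.2
    rw [h, map_zero] at this
    exact mul_ne_zero h2 (nonsquare_ne_zero h2) this.symm
  have hunit : ∀ x : X, IsUnit x.1 := fun x => isUnit_of_mul_isUnit_left (hs0 ⟨_, hnorm x⟩)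
  choose root hroot1 hroot2 using fun s : S₀ => Unitary.norm_surjective φ hφ hθ (hs0 s) s.2.1
  have hrs : ∀ s : S₀, root s * φ (root s) = s.1 := fun s => by rw [mul_comm, hroot2]
  let back : S₀ × N → X := fun p => ⟨root p.1 * (p.2.1 : R), by
    refine mul_left_cancel₀ h2 ?_
    rw [hQx, map_mul φ, mul_mul_mul_comm, hrs, (hN _).mp p.2.2, mul_one, p.1.2.2]⟩
  have hback : Function.Bijective back := by
    constructor
    · rintro ⟨s, z⟩ ⟨s', z'⟩ h
      have h' : root s * (z.1 : R) = root s' * (z'.1 : R) := congrArg Subtype.val h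
      have hs : s = s' := Subtype.ext (by
        have h'' := congrArg (fun t => t * φ t) h'
        rw [map_mul φ, map_mul φ, mul_mul_mul_comm (root s), mul_mul_mul_comm (root s'), hrs, hrs,
          (hN _).mp z.2, (hN _).mp z'.2, mul_one, mul_one] at h''
        exact h'')
      subst hs
      exact Prod.ext rfl (Subtype.ext (Units.ext ((hroot1 s).mul_left_cancel h')))
    · intro x
      set s : S₀ := ⟨_, hnorm x⟩
      set w : Rˣ := (hroot1 s).unit⁻¹ * (hunit x).unit with hw
      have e : root s * (w : R) = x.1 := by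
        rw [hw, Units.val_mul, ← mul_assoc, (hroot1 s).mul_val_inv, one_mul]; rfl
      have hwN : w ∈ N := by
        rw [hN]
        have e2 : root s * φ (root s) * ((w : R) * φ (w : R)) = x.1 * φ x.1 := by
          rw [← e, map_mul]; ring
        rw [hrs] at e2
        exact (hs0 s).mul_left_cancel (e2.trans (mul_one _).symm)
      exact ⟨(s, ⟨w, hwN⟩), Subtype.ext e⟩
  -- the number of admissible norms is odd
  let K : AddSubgroup R :=
    { carrier := {s | φ s = s ∧ ψ s = 0}
      zero_mem' := ⟨map_zero φ, map_zero ψ⟩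
      add_mem' := fun h h' => ⟨by rw [map_add, h.1, h'.1], by rw [map_add, h.2, h'.2, add_zero]⟩
      neg_mem' := fun h => ⟨by rw [map_neg, h.1], by rw [map_neg, h.2, neg_zero]⟩ }
  have hodd : Odd (Nat.card S₀) := by
    have hdim : 2 ≤ finrank F R := by
      rcases Nat.lt_or_ge (finrank F R) 2 with h | h
      · exfalso
        have h1 : finrank F R = 1 := by
          have := Module.finrank_pos (R := F) (M := R)
          omega
        obtain ⟨k, hk⟩ := (Algebra.mem_bot).mp
          ((Subalgebra.bot_eq_top_of_finrank_eq_one h1).symm ▸ Algebra.mem_top : θ ∈ (⊥ : Subalgebra F R))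
        rw [← hk, hc, sub_self] at hθ
        exact not_isUnit_zero hθ
      · exact h
    obtain ⟨x, hx⟩ := exists_eq_value h2 Q hQ hdim c
    let s₁ : S₀ := ⟨_, hnorm ⟨x, hx⟩⟩
    let e : K ≃ S₀ :=
      { toFun := fun k => ⟨k.1 + s₁.1, by rw [map_add, k.2.1, s₁.2.1], by rw [map_add, k.2.2, s₁.2.2, zero_add]⟩
        invFun := fun s => ⟨s.1 - s₁.1, by rw [map_sub, s.2.1, s₁.2.1], by rw [map_sub, s.2.2, s₁.2.2, sub_self]⟩
        left_inv := fun k => Subtype.ext (add_sub_cancel_right _ _)
        right_inv := fun s => Subtype.ext (sub_add_cancel _ _) }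
    rw [← Nat.card_congr e]
    refine Odd.of_dvd_nat ?_ (AddSubgroup.card_addSubgroup_dvd_card K)
    rw [Module.natCard_eq_pow_finrank (K := F), Nat.card_eq_fintype_card]
    refine Odd.pow (Nat.odd_iff.mpr ?_)
    rcases Nat.mod_two_eq_zero_or_one (Fintype.card F) with h | h
    · exact absurd ((card_field_parity (F := F)).2 h) h2
    · exact h
  have hcardX : Fintype.card X = Nat.card S₀ * T := by
    rw [← Nat.card_eq_fintype_card, hT, ← Nat.card_prod]
    exact (Nat.card_eq_of_bijective back hback).symm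
  have hpow : ∀ (i : ℕ) (x : X), ((((levelPerm Q c g) ^ i) x : X) : R) = (z₀.1 : R) ^ i * x.1 := by
    intro i
    induction i with
    | zero => intro x; simp
    | succ i ih =>
      intro x
      rw [pow_succ', Equiv.Perm.mul_apply, pow_succ', mul_assoc, ← ih]
      exact hG _
  have hfree : ∀ (i : ℕ) (x : X), ((levelPerm Q c g) ^ i) x = x ↔ T ∣ i := fun i x => by
    rw [Subtype.ext_iff, hpow, ← hord, orderOf_dvd_iff_pow_eq_one, Units.ext_iff, Units.val_pow_eq_pow_val,
      Units.val_one]
    exact ⟨fun h => (hunit x).mul_right_cancel (h.trans (one_mul _).symm), fun h => by rw [h, one_mul]⟩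
  have hT2 : 2 ≤ T := Nat.le_of_dvd Nat.card_pos hTeven
  show levelSign Q c g = -1
  rw [levelSign, MonoidHom.comp_apply]
  letI := Classical.decEq {x : R // Q x = c}
  letI := Fintype.ofFinite {x : R // Q x = c}
  rw [sign_semiregular (levelPerm Q c g) (T := T) fun x _ i => hfree i x]
  have hsupp : (levelPerm Q c g).support = Finset.univ := Finset.eq_univ_iff_forall.2 fun x => by
    rw [Equiv.Perm.mem_support]
    intro h
    have := (hfree 1 x).mp (by rwa [pow_one])
    have := Nat.le_of_dvd one_pos this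
    omega
  rw [hsupp, Finset.card_univ]
  have hcardX' : Fintype.card {x : R // Q x = c} = Nat.card S₀ * T := by
    convert hcardX using 2
  rw [hcardX', Nat.mul_div_cancel _ (by omega)]
  exact Odd.neg_one_pow ((Even.mul_left (even_iff_two_dvd.mpr hTeven) _).add_odd hodd)

end Cfsg.Agent.KnownB.OrthCent
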