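import Cfsg.Agent.Forms.FormTransfer

/-! The determinant of a similitude of a non-degenerate alternating form. -/

set_option autoImplicit false

namespace Cfsg.Agent.KnownB.OrthCent

open Module Cfsg.Agent.Forms
open LinearMap (BilinForm)

universe u v

variable {F : Type u} [Field F] [Fintype F] {V : Type v} [AddCommGroup V] [Module F V]
  [FiniteDimensional F V]

theorem det_similitude {n : ℕ} (hd : finrank F V = n + n) {B : BilinForm F V} (hA : B.IsAlt)
    (hB : B.Nondegenerate) (g : V ≃ₗ[F] V) (δ : Fˣ) (hg : ∀ x y, B (g x) (g y) = δ * B x y) :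
    LinearEquiv.det g = δ ^ n := by
  classical
  let c : (Fin (n + n) → F) ≃ₗ[F] V :=
    LinearEquiv.ofFinrankEq _ _ (by rw [Module.finrank_fin_fun, hd])
  let B' : BilinForm F (Fin (n + n) → F) := B.compl₁₂ c.toLinearMap c.toLinearMap
  have hB'a : ∀ x y, B' x y = B (c x) (c y) := fun _ _ => rfl
  have hA' : B'.IsAlt := fun x => hA (c x)
  have hB' : B'.Nondegenerate := by
    refine ⟨fun x hx => c.map_eq_zero_iff.mp (hB.1 _ fun y => ?_),
      fun y hy => c.map_eq_zero_iff.mp (hB.2 _ fun x => ?_)⟩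
    · obtain ⟨z, rfl⟩ := c.surjective y; exact hx z
    · obtain ⟨z, rfl⟩ := c.surjective x; exact hy z
  obtain ⟨e, he⟩ := exists_isometryEquiv (n := n + n) (by simp) (sympB n F) sympB_isAlt
    (fun x hx => sympB_nondegenerate.1 x hx) B' hA' hB'
  let d : Fin n ⊕ Fin n → F := Sum.elim (fun _ => (δ : F)) (fun _ => 1)
  have hd0 : ∀ i, d i ≠ 0 := fun i => by cases i <;> simp [d]
  let D : (Fin n ⊕ Fin n → F) ≃ₗ[F] (Fin n ⊕ Fin n → F) :=
    LinearEquiv.piCongrRight fun i => LinearEquiv.smulOfUnit (Units.mk0 (d i) (hd0 i))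
  have hDa : ∀ x i, D x i = d i * x i := fun _ _ => rfl
  have hD : ∀ x y, sympB n F (D x) (D y) = δ * sympB n F x y := fun x y => by
    simp only [sympB_apply, Cfsg.sympForm, Matrix.J, Matrix.mulVec, dotProduct, Fintype.sum_sum_type,
      Matrix.fromBlocks_apply₁₁, Matrix.fromBlocks_apply₁₂, Matrix.fromBlocks_apply₂₁, Matrix.fromBlocks_apply₂₂,
      Matrix.zero_apply, Matrix.neg_apply, Matrix.one_apply, hDa, d, Sum.elim_inl, Sum.elim_inr]
    simp [Finset.mul_sum, mul_comm, mul_assoc, mul_add]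
  have hdetD : LinearEquiv.det D = δ ^ n := by
    refine Units.ext ?_
    rw [LinearEquiv.coe_det,
      show (D : (Fin n ⊕ Fin n → F) →ₗ[F] _) = Matrix.toLin' (Matrix.diagonal d) from
        LinearMap.ext fun x => funext fun i => by
          rw [Matrix.toLin'_apply, Matrix.mulVec_diagonal]; exact hDa x i,
      LinearMap.det_toLin', Matrix.det_diagonal, Fintype.prod_sum_type]
    simp [d]
  let D' : (Fin (n + n) → F) ≃ₗ[F] (Fin (n + n) → F) := (e.symm.trans D).trans e
  let g' : (Fin (n + n) → F) ≃ₗ[F] (Fin (n + n) → F) := (c.trans g).trans c.symm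
  have hD' : ∀ x y, B' (D' x) (D' y) = δ * B' x y := fun x y => by
    simp only [D', LinearEquiv.trans_apply, he, hD]
    rw [← he, e.apply_symm_apply, e.apply_symm_apply]
  have hg' : ∀ x y, B' (g' x) (g' y) = δ * B' x y := fun x y => by
    simp only [g', hB'a, LinearEquiv.trans_apply, c.apply_symm_apply, hg]
  have hk := det_of_alt hA' hB' (D'.symm.trans g') fun x y => by
    show B' (g' (D'.symm x)) (g' (D'.symm y)) = _
    rw [hg', ← hD', D'.apply_symm_apply, D'.apply_symm_apply]
  rw [LinearEquiv.det_trans, LinearEquiv.det_symm, map_inv, mul_inv_eq_one] at hk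
  have h1 : LinearEquiv.det g' = LinearEquiv.det g := by
    rw [show g' = (c.trans g).trans c.symm from rfl]
    exact LinearEquiv.det_conj g c.symm
  rw [← h1, hk, show LinearEquiv.det D' = LinearEquiv.det D from LinearEquiv.det_conj D e, hdetD]

end Cfsg.Agent.KnownB.OrthCent
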