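import Cfsg.Agent.KnownB.OrthCent.Idempotent
import Cfsg.Agent.KnownB.OrthCent.SympDet
import Cfsg.Agent.KnownB.Unitary.Norm
import Cfsg.Agent.Forms.Discr

/-! A similitude of any multiplier commuting with a semisimple isometry. -/

set_option autoImplicit false
set_option maxHeartbeats 800000

namespace Cfsg.Agent.KnownB.OrthCent

open Module Cfsg.Agent.Forms
open LinearMap (BilinForm)

universe u v

variable {F : Type u} [Field F] [Fintype F] {V : Type v} [AddCommGroup V] [Module F V]
  [FiniteDimensional F V] [Finite V] {Q : QuadraticForm F V} {a : orthGroup Q} (M : Model Q a)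

include M in
theorem Model.exists_similitude_commute (h2 : (2 : F) ≠ 0) (hQ : (QuadraticMap.polarBilin Q).Nondegenerate)
    {r : ℕ} (hro : Odd r) (har : a ^ r = 1) {k : ℕ} (hk : finrank F V = k + k) (δ : Fˣ) :
    ∃ L : V ≃ₗ[F] V, (∀ v, Q (L v) = δ * Q v) ∧ (∀ v, L ((a : V ≃ₗ[F] V) v) = (a : V ≃ₗ[F] V) (L v)) ∧
      (LinearEquiv.det L = δ ^ k ∨ ∃ u, Q u ≠ 0 ∧ (a : V ≃ₗ[F] V) u = u) := by
  classical
  have hadj := M.adjoint
  set e := M.idem with he
  have hee := M.idem_idem
  have hei := M.inv_idem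
  -- the scalar as a norm on the moved space
  obtain ⟨z, hze, hz⟩ : ∃ z : M.S, e * z = z ∧ z * M.inv z = algebraMap F M.S δ * e := by
    let J : Ideal M.S := Ideal.span {1 - e}
    have hJ : ∀ x ∈ J, M.inv x ∈ J := fun x hx => by
      obtain ⟨c, rfl⟩ := Ideal.mem_span_singleton'.mp hx
      exact Ideal.mem_span_singleton'.mpr ⟨M.inv c, by rw [map_mul, map_sub, map_one, hei]⟩
    let φ : M.S ⧸ J →+* M.S ⧸ J := Ideal.Quotient.lift J ((Ideal.Quotient.mk J).comp M.inv)
      fun x hx => Ideal.Quotient.eq_zero_iff_mem.mpr (hJ x hx)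
    haveI : Finite (M.S ⧸ J) := Finite.of_surjective _ (Ideal.Quotient.mk_surjective (I := J))
    have hφ : ∀ x, φ (φ x) = x := fun x => by
      obtain ⟨s, rfl⟩ := Ideal.Quotient.mk_surjective x
      show Ideal.Quotient.mk J (M.inv (M.inv s)) = _
      rw [M.inv_inv]
    have hone : Ideal.Quotient.mk J e = 1 := by
      rw [← map_one (Ideal.Quotient.mk J), eq_comm, Ideal.Quotient.eq]
      exact Ideal.subset_span rfl
    obtain ⟨y, -, hy⟩ := Unitary.norm_surjective φ hφ (θ := Ideal.Quotient.mk J M.gen)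
      (IsUnit.of_mul_eq_one (Ideal.Quotient.mk J (M.skew ^ (M.expo - 2))) (by
        show (Ideal.Quotient.mk J M.gen - Ideal.Quotient.mk J (M.inv M.gen)) * _ = 1
        rw [← map_sub, ← map_mul]
        show Ideal.Quotient.mk J (M.skew * M.skew ^ (M.expo - 2)) = 1
        rw [← pow_succ', show M.expo - 2 + 1 = M.expo - 1 by have := M.expo_ge; omega]
        exact hone))
      (u := Ideal.Quotient.mk J (algebraMap F M.S δ)) ((δ.isUnit.map (algebraMap F M.S)).map _)
      (by show Ideal.Quotient.mk J (M.inv _) = _; rw [M.inv_scalar])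
    obtain ⟨s, rfl⟩ := Ideal.Quotient.mk_surjective y
    change Ideal.Quotient.mk J (M.inv s) * Ideal.Quotient.mk J s = _ at hy
    rw [← map_mul, Ideal.Quotient.eq] at hy
    obtain ⟨c, hc⟩ := Ideal.mem_span_singleton'.mp hy
    refine ⟨e * s, by rw [← mul_assoc, hee], ?_⟩
    rw [map_mul, hei]
    linear_combination (-e) * hc + (M.inv s * s - c) * hee
  -- the fixed part
  let E : Module.End F V := M.act e
  let V0 : Submodule F V := LinearMap.ker E
  let W : Submodule F V := LinearMap.range E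
  have hEE : ∀ v, E (E v) = E v := fun v => by rw [← M.act_mul, hee]
  have hEadj : ∀ u v, QuadraticMap.polar Q (E u) v = QuadraticMap.polar Q u (E v) := fun u v => by
    rw [hadj, hei]
  have hperp : ∀ x ∈ V0, ∀ v, QuadraticMap.polar Q x (E v) = 0 := fun x hx v => by
    rw [← hEadj, LinearMap.mem_ker.mp hx]; simp [QuadraticMap.polar]
  let Q0 : QuadraticForm F V0 := Q.comp V0.subtype
  let B0 : BilinForm F V0 := QuadraticMap.polarBilin Q0
  have hpol0 : ∀ x y, B0 x y = QuadraticMap.polar Q (x : V) (y : V) := fun x y => by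
    simp [B0, Q0, QuadraticMap.polar]
  have hS0 : B0.IsSymm := ⟨fun x y => by rw [hpol0, hpol0, QuadraticMap.polar_comm]⟩
  have hB0 : B0.Nondegenerate := by
    have key : ∀ x, (∀ y, B0 x y = 0) → x = 0 := fun x hx => Subtype.ext (hQ.1 _ fun v => by
      show QuadraticMap.polar Q (x : V) v = 0
      have hm : v - E v ∈ V0 := by
        rw [LinearMap.mem_ker, map_sub, hEE, sub_self]
      have h1 := hx ⟨_, hm⟩
      rw [hpol0, QuadraticMap.polar_sub_right, hperp x x.2, sub_zero] at h1
      exact h1)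
    exact ⟨key, fun y hy => key y fun x => by rw [hpol0, QuadraticMap.polar_comm, ← hpol0]; exact hy x⟩
  -- the twisted form on the moved space
  let BW : BilinForm F W := LinearMap.BilinForm.restrict ((QuadraticMap.polarBilin Q).compl₂ (M.act M.skew)) W
  have hBW : ∀ x y : W, BW x y = QuadraticMap.polar Q (x : V) (M.act M.skew (y : V)) := fun _ _ => rfl
  have hskew : ∀ u v, QuadraticMap.polar Q u (M.act M.skew v) = -QuadraticMap.polar Q v (M.act M.skew u) := fun u v => by
    rw [QuadraticMap.polar_comm Q u, hadj, M.inv_skew, map_neg, LinearMap.neg_apply,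
      QuadraticMap.polar_neg_right]
  have hAW : BW.IsAlt := fun x => by
    have h := hskew (x : V) (x : V)
    rw [hBW]
    exact (mul_eq_zero.mp (by linear_combination h :
      (2 : F) * QuadraticMap.polar Q (x : V) (M.act M.skew (x : V)) = 0)).resolve_left h2
  have hEW : ∀ x : W, E (x : V) = x := fun x => by
    obtain ⟨v, hv⟩ := x.2
    rw [← hv, hEE]
  have hBWn : ∀ x, (∀ y, BW x y = 0) → x = 0 := fun x hx => Subtype.ext (hQ.1 _ fun v => by
    show QuadraticMap.polar Q (x : V) v = 0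
    have h1 := hx ⟨E (M.act (M.skew ^ (M.expo - 2)) v), _, rfl⟩
    rw [hBW] at h1
    change QuadraticMap.polar Q (x : V) (M.act M.skew (E (M.act (M.skew ^ (M.expo - 2)) v))) = 0 at h1
    rw [← M.act_mul, ← M.act_mul, mul_comm M.skew, mul_assoc, ← pow_succ',
      show M.expo - 2 + 1 = M.expo - 1 by have := M.expo_ge; omega,
      show M.skew ^ (M.expo - 1) = e from rfl, hee] at h1
    rw [← hEW x, hEadj]
    exact h1)
  obtain ⟨w, hw⟩ := alt_finrank_even hAW hBWn
  have hdim : finrank F W + finrank F V0 = k + k := hk ▸ LinearMap.finrank_range_add_finrank_ker E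
  -- a similitude of the fixed part
  obtain ⟨T, hT⟩ : ∃ T : V0 ≃ₗ[F] V0, ∀ x y, B0 (T x) (T y) = (δ : F) * B0 x y := by
    rcases Nat.eq_zero_or_pos (finrank F V0) with h0 | hpos
    · haveI : Subsingleton V0 := Module.finrank_zero_iff.mp h0
      exact ⟨LinearEquiv.refl F _, fun x y => by
        rw [Subsingleton.elim x 0]; simp⟩
    let B' : BilinForm F V0 := ((δ : F)⁻¹) • B0
    have hS' : B'.IsSymm := ⟨fun x y => by simp [B', hS0.eq]⟩
    have hB' : B'.Nondegenerate := by
      refine ⟨fun x hx => hB0.1 x fun y => ?_, fun y hy => hB0.2 y fun x => ?_⟩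
      · simpa [B', δ.ne_zero] using hx y
      · simpa [B', δ.ne_zero] using hy x
    obtain ⟨n, hn⟩ : ∃ n, finrank F V0 = n + 1 := ⟨finrank F V0 - 1, by omega⟩
    let c := Module.finBasisOfFinrankEq F V0 hn
    obtain ⟨T, hT⟩ := exists_isometry_of_det h2 hS0 hB0 hS' hB' hn hn c c (by
      obtain ⟨m, hm⟩ : ∃ m, n + 1 = m + m := ⟨k - w, by omega⟩
      have hpow : ((δ : F)⁻¹) ^ (n + 1) = ((δ : F)⁻¹) ^ m * ((δ : F)⁻¹) ^ m := by rw [hm, pow_add]
      rw [map_smul, Matrix.det_smul, Fintype.card_fin, hpow]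
      refine ⟨((δ : F)⁻¹) ^ m * (LinearMap.BilinForm.toMatrix c B0).det, ?_⟩
      ring)
    refine ⟨T, fun x y => ?_⟩
    have h := hT x y
    simp only [B', LinearMap.smul_apply, smul_eq_mul] at h
    rw [← h, mul_inv_cancel_left₀ δ.ne_zero]
  -- the similitude
  let pr : V →ₗ[F] V0 := (LinearMap.id - E).codRestrict V0 fun v => by
    rw [LinearMap.mem_ker, LinearMap.sub_apply, LinearMap.id_apply, map_sub, hEE, sub_self]
  have hpr : ∀ v, (pr v : V) = v - E v := fun v => rfl
  let L₀ : Module.End F V := M.act z + V0.subtype ∘ₗ T.toLinearMap ∘ₗ pr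
  have hL₀ : ∀ v, L₀ v = M.act z v + (T (pr v) : V) := fun v => rfl
  have hzW : ∀ v, M.act z v = E (M.act z v) := fun v => by rw [← M.act_mul, hze]
  have hzz : ∀ v, M.act (M.inv z) (M.act z v) = (δ : F) • E v := fun v => by
    rw [← M.act_mul, mul_comm, hz, M.act_mul, AlgHom.commutes, Module.algebraMap_end_apply]
  have hQL : ∀ v, Q (L₀ v) = δ * Q v := fun v => by
    have hv : v = E v + (pr v : V) := by rw [hpr]; abel
    have e1 : 2 * Q (M.act z v) = δ * (2 * Q (E v)) := by
      have ee : ∀ u, 2 * Q u = QuadraticMap.polar Q u u := fun u => by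
        rw [QuadraticMap.polar_self, two_nsmul, two_mul]
      rw [ee, ee, hadj, hzz, QuadraticMap.polar_smul_right, smul_eq_mul, hEadj, hEE]
    have e2 : 2 * Q (T (pr v) : V) = δ * (2 * Q (pr v : V)) := by
      have h := hT (pr v) (pr v)
      rw [hpol0, hpol0, QuadraticMap.polar_self, QuadraticMap.polar_self, two_nsmul, two_nsmul] at h
      linear_combination h
    have p1 : QuadraticMap.polar Q (M.act z v) (T (pr v) : V) = 0 := by
      rw [hzW, QuadraticMap.polar_comm]; exact hperp _ (T (pr v)).2 _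
    have p2 : QuadraticMap.polar Q (E v) (pr v : V) = 0 := by
      rw [QuadraticMap.polar_comm]; exact hperp _ (pr v).2 _
    rw [hL₀, QuadraticMap.map_add Q, p1]
    conv_rhs => rw [hv, QuadraticMap.map_add Q, p2]
    exact mul_left_cancel₀ h2 (by linear_combination e1 + e2)
  have hinj : Function.Injective L₀ := by
    rw [← LinearMap.ker_eq_bot, LinearMap.ker_eq_bot']
    intro v hv
    refine hQ.1 v fun y => ?_
    have h2' : ∀ u w, QuadraticMap.polar Q (L₀ u) (L₀ w) = δ * QuadraticMap.polar Q u w := fun u w => by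
      simp only [QuadraticMap.polar, ← map_add, hQL]
      ring
    have := h2' v y
    rw [hv] at this
    refine (mul_eq_zero.mp ?_).resolve_left δ.ne_zero
    rw [show (QuadraticMap.polarBilin Q v) y = QuadraticMap.polar Q v y from rfl, ← this]
    simp [QuadraticMap.polar]
  let L : V ≃ₗ[F] V := LinearEquiv.ofInjectiveEndo L₀ hinj
  have hL : ∀ v, L v = L₀ v := fun v => rfl
  refine ⟨L, fun v => by rw [hL, hQL], fun v => ?_, ?_⟩
  · have hfix : ∀ t : V0, (a : V ≃ₗ[F] V) (t : V) = t := fun t =>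
      M.fixed_of_idem hro har (LinearMap.mem_ker.mp t.2)
    have hEa : E ((a : V ≃ₗ[F] V) v) = (a : V ≃ₗ[F] V) (E v) := by
      rw [← M.act_gen_apply, ← M.act_gen_apply, ← M.act_mul, ← M.act_mul, mul_comm]
    have hprav : pr ((a : V ≃ₗ[F] V) v) = pr v := Subtype.ext (by
      have h := hfix (pr v)
      rw [hpr, map_sub] at h
      rw [hpr, hpr, hEa, h])
    rw [hL, hL, hL₀, hL₀, hprav, map_add, hfix, ← M.act_gen_apply, ← M.act_gen_apply, ← M.act_mul,
      ← M.act_mul, mul_comm]
  · by_cases h : ∃ u : V0, Q (u : V) ≠ 0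
    · obtain ⟨u, hu⟩ := h
      exact Or.inr ⟨u, hu, M.fixed_of_idem hro har (LinearMap.mem_ker.mp u.2)⟩
    push Not at h
    left
    have hbot : ∀ x : V0, x = 0 := fun x => hB0.1 x fun y => by
      rw [hpol0]
      rw [QuadraticMap.polar, ← Submodule.coe_add, h, h, h]
      ring
    have hE1 : ∀ v, E v = v := fun v => (sub_eq_zero.mp (congrArg Subtype.val (hbot (pr v)))).symm
    let BV : BilinForm F V := (QuadraticMap.polarBilin Q).compl₂ (M.act M.skew)
    have hBV : ∀ x y, BV x y = QuadraticMap.polar Q x (M.act M.skew y) := fun _ _ => rfl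
    have hWtop : ∀ v, v ∈ W := fun v => ⟨v, hE1 v⟩
    have hAV : BV.IsAlt := fun x => hAW ⟨x, hWtop x⟩
    have hBVn : ∀ x, (∀ y, BV x y = 0) → x = 0 := fun x hx =>
      congrArg Subtype.val (hBWn ⟨x, hWtop x⟩ fun y => hx y)
    refine det_similitude hk hAV ⟨hBVn, fun y hy => hBVn y fun x => by rw [← hAV.neg_eq, hy, neg_zero]⟩ L δ
      fun x y => ?_
    have hLz : ∀ v, L v = M.act z v := fun v => by
      rw [hL, hL₀, hbot (pr v), map_zero, Submodule.coe_zero, add_zero]
    rw [hBV, hBV, hLz, hLz, ← M.act_mul, mul_comm M.skew, M.act_mul, hadj, hzz, hE1,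
      QuadraticMap.polar_smul_right, smul_eq_mul]

end Cfsg.Agent.KnownB.OrthCent
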