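import Cfsg.Agent.Forms.Spinor
import Cfsg.Agent.Forms.OrthGen

/-! Isometries of a non-degenerate subspace act on the whole space with the same determinant and
spinor norm. -/

set_option autoImplicit false
set_option linter.unusedSectionVars false

namespace Cfsg.Agent.KnownB.OrthCent

open Module Cfsg.Agent.Forms

universe u v w

variable {F : Type u} [Field F] {V : Type v} [AddCommGroup V] [Module F V]
  {U : Type w} [AddCommGroup U] [Module F U] [FiniteDimensional F U]
  (Q : QuadraticForm F V) (ρ : U →ₗ[F] V)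

theorem exists_proj (hU : (QuadraticMap.polarBilin (Q.comp ρ)).Nondegenerate) :
    ∃ π : V →ₗ[F] U, (∀ v u, QuadraticMap.polar (Q.comp ρ) (π v) u = QuadraticMap.polar Q v (ρ u)) ∧
      ∀ u, π (ρ u) = u := by
  set B := QuadraticMap.polarBilin (Q.comp ρ)
  let f : V →ₗ[F] Module.Dual F U := (QuadraticMap.polarBilin Q).compl₂ ρ
  let D := LinearMap.BilinForm.toDual B hU
  have hD : ∀ v u, B (D.symm (f v)) u = f v u := fun v u => by
    show D (D.symm (f v)) u = _
    rw [LinearEquiv.apply_symm_apply]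
  refine ⟨D.symm.toLinearMap ∘ₗ f, fun v u => hD v u, fun u => ?_⟩
  have hpol : ∀ a b, QuadraticMap.polar (Q.comp ρ) a b = QuadraticMap.polar Q (ρ a) (ρ b) := fun a b => by
    simp [QuadraticMap.polar, map_add]
  refine sub_eq_zero.mp (hU.1 _ fun y => ?_)
  show B ((D.symm (f (ρ u))) - u) y = 0
  rw [map_sub, LinearMap.sub_apply, hD, sub_eq_zero]
  exact (hpol u y).symm

/-- The extension of isometries of a non-degenerate subspace. -/
theorem exists_extension (hρ : Function.Injective ρ) [FiniteDimensional F V] [Finite F] (h2 : (2 : F) ≠ 0)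
    (hQ : (QuadraticMap.polarBilin Q).Nondegenerate)
    (hU : (QuadraticMap.polarBilin (Q.comp ρ)).Nondegenerate) :
    ∃ (χ : orthGroup (Q.comp ρ) →* orthGroup Q) (π : V →ₗ[F] U),
      (∀ v u, QuadraticMap.polar (Q.comp ρ) (π v) u = QuadraticMap.polar Q v (ρ u)) ∧
      (∀ g v, (χ g : V ≃ₗ[F] V) v = v + ρ ((g : U ≃ₗ[F] U) (π v) - π v)) ∧
      (∀ g, orthDet Q (χ g) = orthDet (Q.comp ρ) g) ∧
      ∀ [Fintype F] [Finite V] [Finite U], ∀ g, spinor Q h2 (χ g) = spinor (Q.comp ρ) h2 g := by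
  obtain ⟨π, hπ, hπρ⟩ := exists_proj Q ρ hU
  have hpol : ∀ a b, QuadraticMap.polar (Q.comp ρ) a b = QuadraticMap.polar Q (ρ a) (ρ b) := fun a b => by
    simp [QuadraticMap.polar, map_add]
  let L : (U ≃ₗ[F] U) → (V →ₗ[F] V) := fun g =>
    LinearMap.id + ρ ∘ₗ (g.toLinearMap ∘ₗ π - π)
  have hL : ∀ g v, L g v = v + ρ (g (π v) - π v) := fun g v => rfl
  have hπL : ∀ g v, π (L g v) = g (π v) := fun g v => by
    rw [hL, map_add, hπρ, add_sub_cancel]
  have hmul : ∀ g h v, L g (L h v) = L (g * h) v := fun g h v => by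
    rw [hL g, hπL, hL h, hL, LinearEquiv.mul_apply, map_sub, map_sub, map_sub]
    abel
  have hone : ∀ v, L 1 v = v := fun v => by
    rw [hL, LinearEquiv.coe_one, id, sub_self, map_zero, add_zero]
  let E : (U ≃ₗ[F] U) → (V ≃ₗ[F] V) := fun g =>
    LinearEquiv.ofLinearMap (L g) (L g⁻¹) (LinearMap.ext fun v => by
      rw [LinearMap.comp_apply, hmul, mul_inv_cancel, hone]; rfl) (LinearMap.ext fun v => by
      rw [LinearMap.comp_apply, hmul, inv_mul_cancel, hone]; rfl)
  have hQE : ∀ (g : orthGroup (Q.comp ρ)) v, Q (E (g : U ≃ₗ[F] U) v) = Q v := fun g v => by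
    show Q (L (g : U ≃ₗ[F] U) v) = Q v
    set t := π v with ht
    set t' := (g : U ≃ₗ[F] U) t
    have h1 : Q (ρ t') = Q (ρ t) := g.2.2 t
    have hperp : ∀ x, QuadraticMap.polar Q (v - ρ t) (ρ x) = 0 := fun x => by
      rw [QuadraticMap.polar_sub_left, ← hπ, ← hpol, ← ht, sub_self]
    have e1 : L (g : U ≃ₗ[F] U) v = (v - ρ t) + ρ t' := by rw [hL, map_sub]; abel
    have e2 : v = (v - ρ t) + ρ t := by abel
    rw [e1, QuadraticMap.map_add Q, hperp, h1]
    conv_rhs => rw [e2, QuadraticMap.map_add Q, hperp]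
  let χ : orthGroup (Q.comp ρ) →* orthGroup Q :=
    MonoidHom.mk' (fun g => ⟨E g, (orth_mem_iff _ _).2 (hQE g)⟩)
      fun g h => orth_ext fun v => (hmul _ _ v).symm
  have hχ : ∀ g v, (χ g : V ≃ₗ[F] V) v = v + ρ ((g : U ≃ₗ[F] U) (π v) - π v) := fun g v => rfl
  have hgen := closure_reflectionSet_odd h2 (Q.comp ρ) hU
  have hrefl : ∀ u, χ (reflection (Q.comp ρ) u) = reflection Q (ρ u) := fun u => orth_ext fun v => by
    rw [hχ, reflection_apply, reflection_apply, QuadraticMap.polar_comm (Q.comp ρ) u, hπ,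
      QuadraticMap.polar_comm Q v, map_sub, map_sub, map_smul, QuadraticMap.comp_apply]
    abel
  refine ⟨χ, π, hπ, hχ, fun g => ?_, ?_⟩
  · refine DFunLike.congr_fun (?_ : (orthDet Q).comp χ = orthDet (Q.comp ρ)) g
    refine MonoidHom.eq_of_eqOn_dense hgen ?_
    rintro _ ⟨u, hu, rfl⟩
    show orthDet Q (χ _) = _
    rw [hrefl]
    exact Units.ext ((orthDet_reflection Q (v := ρ u) hu).trans (orthDet_reflection (Q.comp ρ) hu).symm)
  · intro _ _ _ g
    refine DFunLike.congr_fun (?_ : (spinor Q h2).comp χ = spinor (Q.comp ρ) h2) g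
    refine MonoidHom.eq_of_eqOn_dense hgen ?_
    rintro _ ⟨u, hu, rfl⟩
    show spinor Q h2 (χ _) = _
    rw [hrefl]
    obtain ⟨p1, p2⟩ := spinor_reflection (Q := Q) h2 hQ (v := ρ u) hu
    obtain ⟨r1, r2⟩ := spinor_reflection h2 hU hu
    by_cases hs : IsSquare (Q (ρ u))
    · rw [p1 hs, r1 hs]
    · rw [p2 hs, r2 hs]

end Cfsg.Agent.KnownB.OrthCent
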