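import Cfsg.Agent.KnownB.OrthCent.Idempotent
import Cfsg.Agent.KnownB.OrthCent.Cyclic
import Cfsg.Agent.KnownB.OrthCent.Glue

/-! An isometry of non-trivial spinor norm and determinant one commuting with a semisimple one. -/

set_option autoImplicit false
set_option maxHeartbeats 800000

namespace Cfsg.Agent.KnownB.OrthCent

open Module Cfsg.Agent.Forms

universe u v

variable {F : Type u} [Field F] [Fintype F] {V : Type v} [AddCommGroup V] [Module F V]
  [FiniteDimensional F V] [Finite V] {Q : QuadraticForm F V} {a : orthGroup Q} (M : Model Q a)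

include M in
theorem Model.exists_spinor_commute (h2 : (2 : F) ≠ 0) (hQ : (QuadraticMap.polarBilin Q).Nondegenerate)
    {r : ℕ} (hro : Odd r) (har : a ^ r = 1) (ha1 : a ≠ 1) :
    ∃ g : orthGroup Q, a * g = g * a ∧ orthDet Q g = 1 ∧ spinor Q h2 g = -1 := by
  classical
  obtain ⟨ε, hεε, hεi, hεe, hε0, hkey⟩ := M.exists_minimal hro har ha1
  have hadj := M.adjoint
  have h2S : IsUnit (2 : M.S) := by
    rw [← map_ofNat (algebraMap F M.S)]; exact (IsUnit.mk0 _ h2).map _
  -- an anisotropic vector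
  obtain ⟨v₀, hv₀, hQv₀⟩ : ∃ v₀, M.act ε v₀ = v₀ ∧ Q v₀ ≠ 0 := by
    by_contra hcon
    push Not at hcon
    refine hε0 (M.inj (LinearMap.ext fun w => ?_))
    rw [map_zero, LinearMap.zero_apply]
    refine hQ.1 _ fun y => ?_
    show QuadraticMap.polar Q (M.act ε w) y = 0
    have e1 : M.act ε w = M.act ε (M.act ε w) := by rw [← M.act_mul, hεε]
    have e2 : ∀ x, M.act ε (M.act ε x) = M.act ε x := fun x => by rw [← M.act_mul, hεε]
    rw [e1, hadj, hεi]
    simp only [QuadraticMap.polar]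
    rw [hcon _ (by rw [map_add, e2, e2]), hcon _ (e2 w), hcon _ (e2 y)]
    ring
  let f : M.S →ₗ[F] V := (LinearMap.applyₗ v₀).comp M.act.toLinearMap
  have hf : ∀ x, f x = M.act x v₀ := fun _ => rfl
  let K0 : M.S → Prop := fun x => ∀ y, QuadraticMap.polar Q (M.act x v₀) (M.act y v₀) = 0
  have hsym : ∀ x, K0 x → K0 (M.inv x) := fun x hx y => by
    rw [hadj, M.inv_inv, ← M.act_mul, mul_comm, M.act_mul, ← M.inv_inv y, ← hadj,
      QuadraticMap.polar_comm]
    exact hx _
  have hK0mul : ∀ c x, K0 x → K0 (c * x) := fun c x hx y => by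
    rw [M.act_mul, hadj, ← M.act_mul]; exact hx _
  have hK0 : ∀ x, K0 x → M.act x v₀ = 0 := by
    intro x hx
    have hxy : M.act x v₀ = M.act (ε * x) v₀ := by rw [mul_comm, M.act_mul, hv₀]
    have hy := hK0mul ε x hx
    set y := ε * x with hydef
    by_contra hne
    have hεy : ε * y = y := by rw [hydef, ← mul_assoc, hεε]
    have hεy' : ε * M.inv y = M.inv y := by rw [← hεi, ← map_mul, hεy]
    have hno : ∀ s, M.inv s = s → ε * s = s → K0 s → s = 0 := fun s h1 h2' h3 => by
      by_contra hs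
      obtain ⟨s', hs'⟩ := hkey s h1 h2' hs
      have hε : K0 ε := by rw [← hs', mul_comm]; exact hK0mul _ _ h3
      have h := hε ε
      rw [hv₀, QuadraticMap.polar_self, two_nsmul, ← two_mul] at h
      exact mul_ne_zero h2 hQv₀ h
    have hsum : y + M.inv y = 0 := hno _ (by rw [map_add, M.inv_inv, add_comm])
      (by rw [mul_add, hεy, hεy']) fun z => by
        rw [M.act_add, QuadraticMap.polar_add_left, hy z, hsym y hy z, add_zero]
    have hprod : y * M.inv y = 0 := hno _ (by rw [map_mul, M.inv_inv, mul_comm])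
      (by rw [← mul_assoc, hεy]) (hK0mul y _ (hsym y hy))
    have : y = 0 := M.eq_zero_of_sq (by linear_combination y * hsum - hprod)
    exact hne (by rw [hxy, this, map_zero, LinearMap.zero_apply])
  let J : Ideal M.S :=
    { carrier := {x | M.act x v₀ = 0}
      zero_mem' := by simp
      add_mem' := fun {x y} hx hy => by
        show M.act (x + y) v₀ = 0
        rw [M.act_add, hx, hy, add_zero]
      smul_mem' := fun c x hx => by
        show M.act (c * x) v₀ = 0
        rw [M.act_mul, show M.act x v₀ = 0 from hx, map_zero] }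
  have hJinv : ∀ x ∈ J, M.inv x ∈ J := fun x hx => hK0 _ (hsym x fun y => by
    rw [show M.act x v₀ = 0 from hx]; simp [QuadraticMap.polar])
  let R := M.S ⧸ J
  let φ : R →+* R := Ideal.Quotient.lift J ((Ideal.Quotient.mk J).comp M.inv) fun x hx =>
    Ideal.Quotient.eq_zero_iff_mem.mpr (hJinv x hx)
  have hφmk : ∀ s, φ (Ideal.Quotient.mk J s) = Ideal.Quotient.mk J (M.inv s) := fun s => rfl
  have hφ : ∀ x, φ (φ x) = x := fun x => by
    obtain ⟨s, rfl⟩ := Ideal.Quotient.mk_surjective x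
    rw [hφmk, hφmk, M.inv_inv]
  haveI : Finite R := Finite.of_surjective _ (Ideal.Quotient.mk_surjective (I := J))
  choose rep hrep using Ideal.Quotient.mk_surjective (I := J)
  have hwd : ∀ x s, Ideal.Quotient.mk J s = x → f (rep x) = f s := fun x s hs => by
    have h : rep x - s ∈ J := Ideal.Quotient.eq.mp ((hrep x).trans hs.symm)
    rw [← sub_eq_zero, ← map_sub]; exact h
  let ρ : R →ₗ[F] V :=
    { toFun := fun x => f (rep x)
      map_add' := fun x y => by
        rw [hwd (x + y) (rep x + rep y) (by rw [map_add, hrep, hrep]), map_add]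
      map_smul' := fun c x => by
        rw [hwd (c • x) (c • rep x) (by rw [← Ideal.Quotient.mkₐ_eq_mk F, map_smul, Ideal.Quotient.mkₐ_eq_mk, hrep]),
          map_smul, RingHom.id_apply] }
  have hρ : ∀ s, ρ (Ideal.Quotient.mk J s) = M.act s v₀ := fun s => hwd _ s rfl
  have hρinj : Function.Injective ρ := by
    rw [← LinearMap.ker_eq_bot, LinearMap.ker_eq_bot']
    intro x hx
    obtain ⟨s, rfl⟩ := Ideal.Quotient.mk_surjective x
    rw [hρ] at hx
    exact Ideal.Quotient.eq_zero_iff_mem.mpr hx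
  have hpolρ : ∀ s t : M.S, QuadraticMap.polar (Q.comp ρ) (Ideal.Quotient.mk J s) (Ideal.Quotient.mk J t) =
      QuadraticMap.polar Q (M.act s v₀) (M.act t v₀) := fun s t => by
    simp only [QuadraticMap.polar, QuadraticMap.comp_apply, map_add ρ, hρ]
  have hU : (QuadraticMap.polarBilin (Q.comp ρ)).Nondegenerate := by
    have key : ∀ x, (∀ y, QuadraticMap.polar (Q.comp ρ) x y = 0) → x = 0 := fun x hx => by
      obtain ⟨s, rfl⟩ := Ideal.Quotient.mk_surjective x
      exact Ideal.Quotient.eq_zero_iff_mem.mpr (hK0 s fun t => by rw [← hpolρ]; exact hx _)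
    exact ⟨key, fun y hy => key y fun x => (QuadraticMap.polar_comm _ y x).trans (hy x)⟩
  have hmkε : Ideal.Quotient.mk J ε = 1 := by
    rw [← map_one (Ideal.Quotient.mk J), Ideal.Quotient.eq]
    show M.act (ε - 1) v₀ = 0
    rw [M.act_sub, hv₀, map_one, Module.End.one_apply, sub_self]
  haveI : Nontrivial R := ⟨⟨1, 0, fun h => hQv₀ (by
    rw [← hv₀, ← hρ, hmkε, h, map_zero, QuadraticMap.map_zero])⟩⟩
  set θ : R := Ideal.Quotient.mk J M.gen with hθdef
  have hθ : IsUnit (θ - φ θ) := by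
    refine IsUnit.of_mul_eq_one (Ideal.Quotient.mk J (M.skew ^ (M.expo - 2))) ?_
    rw [hθdef, hφmk, ← map_sub, ← map_mul]
    show Ideal.Quotient.mk J (M.skew * M.skew ^ (M.expo - 2)) = 1
    rw [← pow_succ', show M.expo - 2 + 1 = M.expo - 1 by have := M.expo_ge; omega]
    show Ideal.Quotient.mk J M.idem = 1
    rw [← one_mul (Ideal.Quotient.mk J M.idem), ← hmkε, ← map_mul, hεe, hmkε]
  have hfix : ∀ y : R, φ y = y → y ≠ 0 → IsUnit y := fun y hy hy0 => by
    obtain ⟨s, rfl⟩ := Ideal.Quotient.mk_surjective y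
    set y' := ε * (s + M.inv s) with hy'
    have hmk : Ideal.Quotient.mk J y' = 2 * Ideal.Quotient.mk J s := by
      rw [hy', map_mul, hmkε, one_mul, map_add, ← hφmk, hy, two_mul]
    have h2R : IsUnit (2 : R) := by
      rw [← map_ofNat (Ideal.Quotient.mk J)]; exact h2S.map _
    have hne : y' ≠ 0 := fun h => by
      rw [h, map_zero] at hmk
      exact hy0 (h2R.mul_right_eq_zero.mp hmk.symm)
    obtain ⟨t, ht⟩ := hkey y' (by rw [hy', map_mul, map_add, M.inv_inv, hεi, add_comm])
      (by rw [hy', ← mul_assoc, hεε]) hne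
    have := congrArg (Ideal.Quotient.mk J) ht
    rw [map_mul, hmk, hmkε, mul_comm 2, mul_assoc] at this
    exact IsUnit.of_mul_eq_one _ this
  obtain ⟨z, g, hg, hdet, hsp⟩ := exists_spinor_nontrivial φ (Q.comp ρ) h2 hU hφ
    (fun c => by
      rw [← Ideal.Quotient.mk_algebraMap, hφmk, M.inv_scalar]) hθ hfix
    (fun x y w => by
      obtain ⟨s, rfl⟩ := Ideal.Quotient.mk_surjective x
      obtain ⟨t, rfl⟩ := Ideal.Quotient.mk_surjective y
      obtain ⟨p, rfl⟩ := Ideal.Quotient.mk_surjective w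
      rw [hφmk, ← map_mul, ← map_mul, hpolρ, hpolρ, M.act_mul, hadj, ← M.act_mul])
  obtain ⟨χ, π, hπ, hχ, hχd, hχs⟩ := exists_extension Q ρ hρinj h2 hQ hU
  refine ⟨χ g, ?_, by rw [hχd, hdet], by rw [hχs, hsp]⟩
  have hρθ : ∀ x, ρ (θ * x) = (a : V ≃ₗ[F] V) (ρ x) := fun x => by
    obtain ⟨s, rfl⟩ := Ideal.Quotient.mk_surjective x
    rw [hθdef, ← map_mul, hρ, hρ, M.act_mul, M.act_gen_apply]
  have hπa : ∀ v, π ((a : V ≃ₗ[F] V) v) = θ * π v := fun v => by
    refine sub_eq_zero.mp (hU.1 _ fun u => ?_)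
    show QuadraticMap.polar (Q.comp ρ) (π ((a : V ≃ₗ[F] V) v) - θ * π v) u = 0
    rw [QuadraticMap.polar_sub_left, hπ, sub_eq_zero]
    obtain ⟨s, hs⟩ := Ideal.Quotient.mk_surjective (π v)
    obtain ⟨t, rfl⟩ := Ideal.Quotient.mk_surjective u
    rw [← hs, hθdef, ← map_mul, hpolρ, M.act_mul, hadj M.gen, ← M.act_mul, ← hpolρ, hs, hπ, hρ, hρ,
      M.act_mul, ← hadj, M.act_gen_apply]
  refine orth_ext fun v => ?_
  rw [Subgroup.coe_mul, Subgroup.coe_mul, LinearEquiv.mul_apply, LinearEquiv.mul_apply, hχ, hχ, map_add, hπa,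
    hg, hg, ← hρθ]
  congr 2
  ring

end Cfsg.Agent.KnownB.OrthCent
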