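import Cfsg.Agent.KnownB.OrthSplit.Apps
import Cfsg.Agent.KnownB.OrthCent.SpinorElt
import Cfsg.Agent.KnownB.OrthCent.Similitude

/-! Fusion of semisimple similarities of odd prime order. -/

set_option autoImplicit false
set_option maxHeartbeats 800000

namespace Cfsg.Agent.KnownB.OrthCent

open Matrix Module
open Cfsg.Agent.KnownB.Proj.Orth
open Cfsg.Agent.KnownB.OrthSplit (orthInc orthInc_mulVec orthInc_injective orthInc_det sim_orthInc exists_orth
  inn_of_spinor)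
open Cfsg.Agent.KnownB.Proj.Balance.LinHelp (toGL toGL_mulVec)

universe u

variable {F : Type u} [Field F] [Fintype F] {ι : Type} [Fintype ι] [DecidableEq ι]
  {Q : QuadraticForm F (ι → F)} {k : ℕ}

theorem isometry_mem_poAut (s : Forms.orthGroup Q) : A Q (orthInc Q s) ∈ Cfsg.poAut F ⇑Q := by
  refine Subgroup.subset_closure ⟨(orthInc Q s).1, ((Forms.isometryEquiv Q).symm s).2, ?_⟩
  exact (isInduced_iff' (g := orthInc Q s) 1 _).mpr (by rw [map_one, mul_one])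

theorem poAut_le_pgo : Cfsg.poAut F ⇑Q ≤ Cfsg.pgoAut F ⇑Q :=
  (Subgroup.closure_le _).mpr fun β ⟨g, hg, h⟩ =>
    Subgroup.subset_closure ⟨g, (isoInc Q ⟨g, hg⟩).2, h⟩

theorem special_mem_psoAut (H : EvenOdd Q k) (s : Forms.orthGroup Q) (hs : Forms.orthDet Q s = 1) :
    A Q (orthInc Q s) ∈ Cfsg.psoAut F ⇑Q := by
  refine Subgroup.subset_closure ⟨(orthInc Q s).1, ⟨((Forms.isometryEquiv Q).symm s).2, ?_⟩, ?_⟩
  · exact (orthInc_det s).trans hs
  · exact (isInduced_iff' (g := orthInc Q s) 1 _).mpr (by rw [map_one, mul_one])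

theorem fusion (H : EvenOdd Q k) (x : MulAut (Cfsg.POmega F ⇑Q)) (hx : x ∈ Cfsg.pgoAut F ⇑Q) {r : ℕ}
    (hr : r.Prime) (hro : Odd r) (hrF : (r : F) ≠ 0) (hxr : orderOf x = r) :
    (∀ y, (Cfsg.IsConjUnder (Cfsg.Inn (Cfsg.POmega F ⇑Q)) x y ↔
        Cfsg.IsConjUnder ((dSub H.ns k).map (A Q)) x y) ∧
      (Cfsg.IsConjUnder (Cfsg.psoAut F ⇑Q) x y ↔ Cfsg.IsConjUnder ((dSub H.ns k).map (A Q)) x y)) ∧
    ∀ y, Cfsg.IsConjUnder (Cfsg.poAut F ⇑Q) x y ↔ Cfsg.IsConjUnder (Cfsg.pgoAut F ⇑Q) x y := by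
  classical
  set I := Cfsg.Inn (Cfsg.POmega F ⇑Q)
  set D := (dSub H.ns k).map (A Q)
  have hxr1 : x ^ r = 1 := hxr ▸ pow_orderOf_eq_one x
  -- an isometric lift of the same order
  obtain ⟨a, hax, har⟩ : ∃ a : Forms.orthGroup Q, A Q (orthInc Q a) = x ∧ a ^ r = 1 := by
    rw [pgoAut_eq] at hx
    obtain ⟨h, rfl⟩ := hx
    rw [← map_pow, A_eq_one_iff' H.nd H.dim] at hxr1
    obtain ⟨u, hu⟩ := hxr1
    obtain ⟨t, rfl⟩ := hro
    set w := u * (sim H.ns h ^ t)⁻¹ with hw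
    have hsim : sim H.ns h = w * w := by
      have h1 := congrArg (sim H.ns) hu
      rw [sim_sc, map_pow, pow_succ, two_mul, pow_add] at h1
      rw [hw, mul_mul_mul_comm, h1, ← mul_inv, mul_comm _ (sim H.ns h), mul_inv_cancel_right]
    obtain ⟨a₁, ha₁⟩ := exists_orth H (x := h * (sc Q w)⁻¹)
      (by rw [map_mul, map_inv, sim_sc, ← hsim, mul_inv_cancel])
    have hA : A Q (orthInc Q a₁) = A Q h := by
      rw [← ha₁, map_mul, map_inv, (A_eq_one_iff' H.nd H.dim _).mpr ⟨w, rfl⟩, inv_one, mul_one]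
    refine ⟨a₁ ^ (2 * t + 1 + 1), ?_, orthInc_injective ?_⟩
    · rw [map_pow, map_pow, hA, pow_succ, ← map_pow, (A_eq_one_iff' H.nd H.dim _).mpr ⟨u, hu⟩, one_mul]
    · set z := u * (w ^ (2 * t + 1))⁻¹ with hz
      have hzr : orthInc Q a₁ ^ (2 * t + 1) = sc Q z := by
        rw [← ha₁, (sc_comm w h).symm.inv_right.mul_pow, ← hu, hz, inv_pow, ← map_pow, ← map_inv, ← map_mul]
      have hz1 : z ^ 2 = 1 := by
        have := congrArg (sim H.ns) hzr
        rw [map_pow, sim_orthInc H, one_pow, sim_sc] at this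
        rw [pow_two, ← this]
      rw [map_pow, map_pow, ← pow_mul, mul_comm, pow_mul, hzr, ← map_pow, map_one,
        show 2 * t + 1 + 1 = 2 * (t + 1) by omega, pow_mul, hz1, one_pow, map_one]
  have ha1 : a ≠ 1 := fun h => hr.one_lt.ne (by rw [← hxr, ← hax, h, map_one, map_one, orderOf_one])
  have hr2 : r ≠ 2 := fun h => by rw [h] at hro; exact absurd hro (by decide)
  obtain ⟨M⟩ := exists_model H.two Q H.nd a hr hr2 hrF har ha1
  obtain ⟨g, hga, hgd, hgs⟩ := M.exists_spinor_commute H.two H.nd hro har ha1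
  set c₁ := A Q (orthInc Q g) with hc₁
  have hc₁x : c₁ * x = x * c₁ := by rw [hc₁, ← hax, ← map_mul, ← map_mul, ← map_mul, ← map_mul, hga]
  obtain ⟨δ, hδ⟩ := exists_nonsquare_unit (F := F) H.two
  obtain ⟨c₂, hc₂D, hc₂s, hc₂x⟩ :
      ∃ c₂ : GO Q, c₂ ∈ dSub H.ns k ∧ sim H.ns c₂ = δ ∧ A Q c₂ * x = x * A Q c₂ := by
    obtain ⟨L, hL, hLa, hdet⟩ := M.exists_similitude_commute H.two H.nd hro har (k := k)
      (by rw [Module.finrank_fintype_fun_eq_card, H.card]; omega) δ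
    let l : GO Q := ⟨toGL L, ⟨δ, fun v => by rw [toGL_mulVec]; exact hL v⟩⟩
    have hls : sim H.ns l = δ := sim_eq_of H.ns fun v => by
      show Q (((toGL L : GL ι F) : Matrix ι ι F) *ᵥ v) = _
      rw [toGL_mulVec]; exact hL v
    have hlx : A Q l * x = x * A Q l := by
      rw [← hax, ← map_mul, ← map_mul]
      congr 1
      refine go_ext fun v => ?_
      simp only [Subgroup.coe_mul, Units.val_mul, ← Matrix.mulVec_mulVec, orthInc_mulVec]
      rw [show (l.1 : GL ι F) = toGL L from rfl, toGL_mulVec, toGL_mulVec]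
      exact hLa v
    have hdl : (detGO l : F) = (LinearEquiv.det L : F) := by
      rw [detGO_val, LinearEquiv.coe_det, ← LinearMap.det_toMatrix']
      congr 1
    by_cases hmem : l ∈ dSub H.ns k
    · exact ⟨l, hmem, hls, hlx⟩
    rcases hdet with hd | ⟨v, hv, hav⟩
    · exact absurd (mem_dSub.mpr (Units.ext (by rw [hdl, hd, hls]))) hmem
    · have hrefl : reflGO Q v = orthInc Q (Forms.reflection Q v) := rfl
      refine ⟨l * reflGO Q v, (Subgroup.mul_mem_iff_of_index_two H.index_dSub).mpr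
        ⟨fun h => absurd h hmem, fun h => absurd (mem_dSub.mp h) ?_⟩,
        by rw [map_mul, hls, sim_reflGO, mul_one], ?_⟩
      · rw [detGO_reflGO hv, sim_reflGO, one_pow]
        exact H.neg_one_ne
      · have hcomm : a * Forms.reflection Q v = Forms.reflection Q v * a := Forms.orth_ext fun y => by
          simp only [Subgroup.coe_mul, LinearEquiv.mul_apply, Forms.reflection_apply, map_sub, map_smul, hav]
          have hp : QuadraticMap.polar Q v y = QuadraticMap.polar Q v ((a : (ι → F) ≃ₗ[F] (ι → F)) y) := by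
            conv_rhs => rw [← hav]
            exact (a.2.1 v y).symm
          rw [hp]
        rw [map_mul, mul_assoc, hrefl, ← hax, ← map_mul (A Q) (orthInc Q _), ← map_mul (orthInc Q), ← hcomm,
          map_mul, map_mul, ← mul_assoc, hax, hlx, mul_assoc]
  -- factor through the centraliser
  have hiso : ∀ {b : Forms.orthGroup Q}, Forms.orthDet Q b = 1 →
      ∃ i ∈ I, ∃ c, c * x = x * c ∧ A Q (orthInc Q b) = i * c := fun {b} hb => by
    rcases Int.units_eq_one_or (Forms.spinor Q H.two b) with hs | hs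
    · exact ⟨_, inn_of_spinor H hb hs, 1, by simp, (mul_one _).symm⟩
    · refine ⟨_, inn_of_spinor H (r := b * g) (by rw [map_mul, hb, hgd, one_mul])
        (by rw [map_mul, hs, hgs]; decide), c₁⁻¹, ?_, ?_⟩
      · exact (Commute.inv_left (show Commute c₁ x from hc₁x)).eq
      · rw [map_mul, map_mul, ← hc₁, mul_inv_cancel_right]
  have hsplit : ∀ {h : GO Q}, ∃ b : GO Q, sim H.ns b = 1 ∧ ∃ c, c * x = x * c ∧ A Q h = A Q b * c ∧
      (h ∈ dSub H.ns k → b ∈ dSub H.ns k) := fun {h} => by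
    have sq : ∀ {h : GO Q}, IsSquare (sim H.ns h : F) → ∃ b : GO Q, sim H.ns b = 1 ∧ A Q b = A Q h ∧
        (h ∈ dSub H.ns k → b ∈ dSub H.ns k) := fun {h} ⟨s, hs⟩ => by
      have hs0 : s ≠ 0 := fun h0 => (sim H.ns h).ne_zero (by rw [hs, h0, mul_zero])
      refine ⟨h * (sc Q (Units.mk0 s hs0))⁻¹, ?_, ?_, fun hh => mul_mem hh (inv_mem (H.sc_mem _))⟩
      · rw [map_mul, map_inv, sim_sc, mul_inv_eq_one]
        exact Units.ext hs
      · rw [map_mul, map_inv, (A_eq_one_iff' H.nd H.dim _).mpr ⟨_, rfl⟩, inv_one, mul_one]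
    by_cases hsq : IsSquare (sim H.ns h : F)
    · obtain ⟨b, hb, hA, hm⟩ := sq hsq
      exact ⟨b, hb, 1, by simp, by rw [hA, mul_one], hm⟩
    · obtain ⟨b, hb, hA, hm⟩ := sq (h := h * c₂⁻¹) (by
        rw [map_mul, map_inv, hc₂s, Units.val_mul, Units.val_inv_eq_inv_val]
        exact (binary_isSquare_mul_not (Units.ne_zero _) (fun h' => hδ (by simpa using h'.inv))).mpr hsq)
      refine ⟨b, hb, A Q c₂, hc₂x, ?_, fun hh => hm (mul_mem hh (inv_mem hc₂D))⟩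
      rw [hA, ← map_mul, inv_mul_cancel_right]
  have hconj : ∀ {L L' : Subgroup (MulAut (Cfsg.POmega F ⇑Q))}, (∀ h ∈ L', ∃ i ∈ L, ∃ c, c * x = x * c ∧ h = i * c) →
      ∀ y, Cfsg.IsConjUnder L' x y → Cfsg.IsConjUnder L x y := by
    rintro L L' hLL y ⟨h, hh, rfl⟩
    obtain ⟨i, hi, c, hc, rfl⟩ := hLL h hh
    refine ⟨i, hi, ?_⟩
    rw [_root_.mul_inv_rev, mul_assoc i c x, hc]
    group
  have hmono : ∀ {L L' : Subgroup (MulAut (Cfsg.POmega F ⇑Q))}, L ≤ L' → ∀ y,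
      Cfsg.IsConjUnder L x y → Cfsg.IsConjUnder L' x y := fun hle y ⟨h, hh, he⟩ => ⟨h, hle hh, he⟩
  have hDI : ∀ y, Cfsg.IsConjUnder D x y → Cfsg.IsConjUnder I x y := hconj fun d hd => by
    obtain ⟨h, hh, rfl⟩ := hd
    obtain ⟨b, hb, c, hc, hA, hm⟩ := hsplit (h := h)
    obtain ⟨b', rfl⟩ := exists_orth H hb
    have hbd : Forms.orthDet Q b' = 1 := by
      rw [← orthInc_det, mem_dSub.mp (hm hh), hb, one_pow]
    obtain ⟨i, hi, c', hc', hi'⟩ := hiso hbd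
    exact ⟨i, hi, c' * c, by rw [mul_assoc, hc, ← mul_assoc, hc', mul_assoc],
      by rw [hA, hi', mul_assoc]⟩
  refine ⟨fun y => ⟨⟨hmono (H.inn_le_pso.trans H.pso_le) y, hDI y⟩,
    ⟨hmono H.pso_le y, fun h => hmono H.inn_le_pso y (hDI y h)⟩⟩, fun y => ⟨hmono poAut_le_pgo y, ?_⟩⟩
  refine hconj (fun d hd => ?_) y
  rw [pgoAut_eq] at hd
  obtain ⟨h, rfl⟩ := hd
  obtain ⟨b, hb, c, hc, hA, -⟩ := hsplit (h := h)
  obtain ⟨b', rfl⟩ := exists_orth H hb
  exact ⟨_, isometry_mem_poAut b', c, hc, hA⟩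

theorem fusion_plus {m : ℕ} (h2 : (2 : F) ≠ 0) (hm : 4 ≤ m) (Qf : (Fin m ⊕ Fin m → F) → F)
    (hQf : ⇑(Forms.qPlus m F) = Qf) (x : MulAut (Cfsg.POmega F Qf)) (hx : x ∈ Cfsg.pgoAut F Qf) {r : ℕ}
    (hr : r.Prime) (hro : Odd r) (hrF : (r : F) ≠ 0) (hxr : orderOf x = r) :
    let D := Cfsg.autSubgroupOf fun β : MulAut (Cfsg.POmega F Qf) =>
      ∃ g : GL (Fin m ⊕ Fin m) F, g ∈ Cfsg.Geo.quadSimilarityGroup (F := F) Qf ∧
        Cfsg.PreservesSingularClasses Qf (g : Matrix _ _ F) ∧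
        Cfsg.IsInducedBySemilinearPOmega Qf g (RingEquiv.refl F) β
    (∀ y, (Cfsg.IsConjUnder (Cfsg.Inn (Cfsg.POmega F Qf)) x y ↔ Cfsg.IsConjUnder D x y) ∧
      (Cfsg.IsConjUnder (Cfsg.psoAut F Qf) x y ↔ Cfsg.IsConjUnder D x y)) ∧
    ∀ y, Cfsg.IsConjUnder (Cfsg.poAut F Qf) x y ↔ Cfsg.IsConjUnder (Cfsg.pgoAut F Qf) x y := by
  intro D
  subst hQf
  rw [show D = (dSub (evenOdd_plus (F := F) h2 hm).ns m).map (A (Forms.qPlus m F)) from
    (inndiag_plus_eq m).trans (by rw [dSub_eq_ker_plus h2 hm])]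
  exact fusion (evenOdd_plus (F := F) h2 hm) x hx hr hro hrF hxr

theorem fusion_minus {m : ℕ} (h2 : (2 : F) ≠ 0) (hm : 3 ≤ m) {a b : F} (hab : Aniso a b)
    (Qf : ((Fin m ⊕ Fin m) ⊕ Fin 2 → F) → F) (hQf : ⇑(Forms.qMinus m F a b) = Qf)
    (x : MulAut (Cfsg.POmega F Qf)) (hx : x ∈ Cfsg.pgoAut F Qf) {r : ℕ}
    (hr : r.Prime) (hro : Odd r) (hrF : (r : F) ≠ 0) (hxr : orderOf x = r) :
    let D := Cfsg.autSubgroupOf fun β : MulAut (Cfsg.POmega F Qf) =>
      ∃ g : GL ((Fin m ⊕ Fin m) ⊕ Fin 2) F, g ∈ Cfsg.Geo.quadSimilarityGroup (F := F) Qf ∧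
        Cfsg.PreservesSingularClassesMinus m a b (g : Matrix _ _ F) ∧
        Cfsg.IsInducedBySemilinearPOmega Qf g (RingEquiv.refl F) β
    (∀ y, (Cfsg.IsConjUnder (Cfsg.Inn (Cfsg.POmega F Qf)) x y ↔ Cfsg.IsConjUnder D x y) ∧
      (Cfsg.IsConjUnder (Cfsg.psoAut F Qf) x y ↔ Cfsg.IsConjUnder D x y)) ∧
    ∀ y, Cfsg.IsConjUnder (Cfsg.poAut F Qf) x y ↔ Cfsg.IsConjUnder (Cfsg.pgoAut F Qf) x y := by
  intro D
  subst hQf
  rw [show D = (dSub (evenOdd_minus (F := F) h2 hm hab).ns (m + 1)).map (A (Forms.qMinus m F a b)) from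
    inndiag_minus_eq (m := m) h2 hab _ rfl]
  exact fusion (evenOdd_minus (F := F) h2 hm hab) x hx hr hro hrF hxr

end Cfsg.Agent.KnownB.OrthCent
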