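import Cfsg.Agent.KnownB.OrthCent.Model

/-! The idempotent of the moved space, and minimal idempotents below it. -/

set_option autoImplicit false

namespace Cfsg.Agent.KnownB.OrthCent

open Module Cfsg.Agent.Forms

universe u v

variable {F : Type u} [Field F] [Fintype F] {V : Type v} [AddCommGroup V] [Module F V]
  [FiniteDimensional F V] [Finite V] {Q : QuadraticForm F V} {a : orthGroup Q} (M : Model Q a)

attribute [instance] Model.ring Model.alg Model.fin

namespace Model

/-- The skew element. -/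
def skew : M.S := M.gen - M.inv M.gen

/-- The idempotent of the moved space. -/
def idem : M.S := M.skew ^ (M.expo - 1)

theorem inv_skew : M.inv M.skew = -M.skew := by
  rw [skew, map_sub, M.inv_inv]; ring

theorem pow_pred (x : M.S) : x ^ (M.expo - 1) * x = x := by
  rw [← pow_succ, Nat.sub_add_cancel (by have := M.expo_ge; omega), M.pow_expo]

theorem pow_pred_idem (x : M.S) : x ^ (M.expo - 1) * x ^ (M.expo - 1) = x ^ (M.expo - 1) := by
  have h := M.expo_ge
  rw [← pow_add, show M.expo - 1 + (M.expo - 1) = M.expo + (M.expo - 2) by omega, pow_add, M.pow_expo,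
    ← pow_succ', show M.expo - 2 + 1 = M.expo - 1 by omega]

theorem eq_zero_of_sq {x : M.S} (h : x * x = 0) : x = 0 := by
  rw [← M.pow_expo x, show M.expo = 2 + (M.expo - 2) by have := M.expo_ge; omega, pow_add, pow_two, h, zero_mul]

theorem idem_skew : M.idem * M.skew = M.skew := M.pow_pred _

theorem idem_idem : M.idem * M.idem = M.idem := M.pow_pred_idem _

theorem inv_idem : M.inv M.idem = M.idem := by
  rw [idem, map_pow, inv_skew, Even.neg_pow]
  exact M.expo_odd.tsub_odd odd_one

theorem act_mul (x y : M.S) (v : V) : M.act (x * y) v = M.act x (M.act y v) := by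
  rw [map_mul, Module.End.mul_apply]

theorem act_add (x y : M.S) (v : V) : M.act (x + y) v = M.act x v + M.act y v := by
  rw [map_add, LinearMap.add_apply]

theorem act_sub (x y : M.S) (v : V) : M.act (x - y) v = M.act x v - M.act y v := by
  rw [map_sub, LinearMap.sub_apply]

theorem act_gen_apply (v : V) : M.act M.gen v = (a : V ≃ₗ[F] V) v := by
  rw [M.act_gen]; rfl

theorem act_inv_gen_apply (v : V) : M.act (M.inv M.gen) v = (a : V ≃ₗ[F] V).symm v := by
  refine (a : V ≃ₗ[F] V).injective ?_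
  rw [LinearEquiv.apply_symm_apply, ← M.act_gen_apply, ← act_mul, M.gen_inv, map_one, Module.End.one_apply]

/-- The complement of the moved space consists of fixed vectors. -/
theorem fixed_of_idem {r : ℕ} (hro : Odd r) (har : a ^ r = 1) {v : V} (hv : M.act M.idem v = 0) :
    (a : V ≃ₗ[F] V) v = v := by
  have h1 : M.act M.skew v = 0 := by rw [← M.idem_skew, mul_comm, act_mul, hv, map_zero]
  rw [skew, act_sub, act_gen_apply, act_inv_gen_apply, sub_eq_zero] at h1
  have h2 : (a : V ≃ₗ[F] V) ((a : V ≃ₗ[F] V) v) = v := by rw [h1, LinearEquiv.apply_symm_apply]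
  obtain ⟨k, rfl⟩ := hro
  have hk : ∀ i : ℕ, ((a ^ (2 * i) : orthGroup Q) : V ≃ₗ[F] V) v = v := by
    intro i
    induction i with
    | zero => rfl
    | succ i ih =>
      rw [Nat.mul_succ, pow_add, Subgroup.coe_mul, LinearEquiv.mul_apply, pow_two, Subgroup.coe_mul,
        LinearEquiv.mul_apply, h2, ih]
  have h3 := congrArg (fun g : orthGroup Q => (g : V ≃ₗ[F] V) v) har
  simp only [pow_succ', Subgroup.coe_mul, LinearEquiv.mul_apply, hk] at h3
  exact h3

theorem idem_ne_zero {r : ℕ} (hro : Odd r) (har : a ^ r = 1) (ha1 : a ≠ 1) : M.idem ≠ 0 := fun h =>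
  ha1 (orth_ext fun v => by
    rw [M.fixed_of_idem hro har (v := v) (by rw [h, map_zero, LinearMap.zero_apply])]; rfl)

theorem exists_minimal {r : ℕ} (hro : Odd r) (har : a ^ r = 1) (ha1 : a ≠ 1) :
    ∃ ε : M.S, ε * ε = ε ∧ M.inv ε = ε ∧ ε * M.idem = ε ∧ ε ≠ 0 ∧
      ∀ y, M.inv y = y → ε * y = y → y ≠ 0 → ∃ y', y * y' = ε := by
  classical
  haveI := Fintype.ofFinite M.S
  let P := Finset.univ.filter fun ε : M.S => ε * ε = ε ∧ M.inv ε = ε ∧ ε * M.idem = ε ∧ ε ≠ 0
  have hP : P.Nonempty := ⟨M.idem, Finset.mem_filter.mpr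
    ⟨Finset.mem_univ _, M.idem_idem, M.inv_idem, M.idem_idem, M.idem_ne_zero hro har ha1⟩⟩
  obtain ⟨ε, hε, hmin⟩ := P.exists_min_image (fun x => finrank F (LinearMap.range (M.act x))) hP
  obtain ⟨-, h1, h2, h3, h4⟩ := Finset.mem_filter.mp hε
  refine ⟨ε, h1, h2, h3, h4, fun y hy hεy hy0 => ?_⟩
  set f := y ^ (M.expo - 1) with hf
  have hfε : ε * f = f := by
    rw [hf, show M.expo - 1 = (M.expo - 2) + 1 by have := M.expo_ge; omega, pow_succ, mul_left_comm, hεy]
  have hfP : f ∈ P := Finset.mem_filter.mpr ⟨Finset.mem_univ _, M.pow_pred_idem y, by rw [hf, map_pow, hy],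
    by rw [← hfε, mul_comm ε, mul_assoc, h3], fun h => hy0 (by rw [← M.pow_pred y, ← hf, h, zero_mul])⟩
  have hle : LinearMap.range (M.act f) ≤ LinearMap.range (M.act ε) := by
    rintro _ ⟨v, rfl⟩
    exact ⟨M.act f v, by rw [← act_mul, hfε]⟩
  have heq := Submodule.eq_of_le_of_finrank_le hle (hmin f hfP)
  have hfe : f * ε = ε := M.inj (LinearMap.ext fun v => by
    obtain ⟨w, hw⟩ := (heq ▸ ⟨v, rfl⟩ : M.act ε v ∈ LinearMap.range (M.act f))
    rw [act_mul, ← hw, ← act_mul, hf, M.pow_pred_idem])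
  refine ⟨y ^ (M.expo - 2), ?_⟩
  rw [← pow_succ', show M.expo - 2 + 1 = M.expo - 1 by have := M.expo_ge; omega, ← hf, ← hfε, mul_comm, hfe]

end Model

end Cfsg.Agent.KnownB.OrthCent
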