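import Cfsg.Agent.Forms.OddSpinorTorus
import Mathlib.RingTheory.Adjoin.Basic

/-! The commutative algebra generated by an isometry of order prime to the characteristic. -/

set_option autoImplicit false

namespace Cfsg.Agent.KnownB.OrthCent

open Module Cfsg.Agent.Forms

universe u v

variable {F : Type u} [Field F] [Fintype F] {V : Type v} [AddCommGroup V] [Module F V]
  [FiniteDimensional F V] [Finite V]

/-- An algebra with involution realised on `V`, in which every element is fixed by an odd power. -/
structure Model (Q : QuadraticForm F V) (a : orthGroup Q) where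
  S : Type v
  [ring : CommRing S]
  [alg : Algebra F S]
  [fin : Finite S]
  act : S →ₐ[F] Module.End F V
  inj : Function.Injective act
  inv : S →+* S
  inv_inv : ∀ x, inv (inv x) = x
  inv_scalar : ∀ c : F, inv (algebraMap F S c) = algebraMap F S c
  adjoint : ∀ x u v, QuadraticMap.polar Q (act x u) v = QuadraticMap.polar Q u (act (inv x) v)
  gen : S
  act_gen : act gen = ((a : V ≃ₗ[F] V) : Module.End F V)
  gen_inv : gen * inv gen = 1
  expo : ℕ
  expo_odd : Odd expo
  expo_ge : 3 ≤ expo
  pow_expo : ∀ x : S, x ^ expo = x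

theorem exists_model (h2 : (2 : F) ≠ 0) (Q : QuadraticForm F V)
    (hQ : (QuadraticMap.polarBilin Q).Nondegenerate) (a : orthGroup Q) {r : ℕ} (hr : r.Prime)
    (hr2 : r ≠ 2) (hrF : (r : F) ≠ 0) (har : a ^ r = 1) (ha1 : a ≠ 1) :
    Nonempty (Model Q a) := by
  classical
  haveI : Fact r.Prime := ⟨hr⟩
  haveI : Nontrivial V := by
    by_contra h
    rw [not_nontrivial_iff_subsingleton] at h
    exact ha1 (orth_ext fun x => Subsingleton.elim _ _)
  obtain ⟨p, hp⟩ := CharP.exists F
  obtain ⟨f, hpp, hpf⟩ := FiniteField.card F p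
  haveI := Fact.mk hpp
  set g : Module.End F V := ((a : V ≃ₗ[F] V) : Module.End F V) with hg
  set A := Algebra.adjoin F {g} with hA
  have hcomm : ∀ x ∈ A, ∀ y ∈ A, x * y = y * x := fun x hx y hy =>
    Algebra.commute_of_mem_adjoin_of_forall_mem_commute hy fun z hz => by
      rw [Set.mem_singleton_iff] at hz
      subst hz
      exact (Algebra.commute_of_mem_adjoin_of_forall_mem_commute hx fun w hw => by
        rw [Set.mem_singleton_iff] at hw; subst hw; exact Commute.refl _).symm
  have hga : g ∈ A := Algebra.subset_adjoin rfl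
  let M : orthGroup Q →* Module.End F V :=
    { toFun := fun x => ((x : V ≃ₗ[F] V) : Module.End F V)
      map_one' := rfl
      map_mul' := fun _ _ => rfl }
  have hgr : g ^ r = 1 := by rw [show g = M a from rfl, ← map_pow, har, map_one]
  set g' : Module.End F V := g ^ (r - 1) with hg'
  have hgg' : g * g' = 1 := by rw [hg', ← pow_succ', Nat.sub_add_cancel hr.one_le, hgr]
  have hg'A : g' ∈ A := pow_mem hga _
  have hiso : ∀ u v, QuadraticMap.polar Q (g u) (g v) = QuadraticMap.polar Q u v := fun u v => a.2.1 u v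
  have hadjex : ∀ x ∈ A, ∃ y ∈ A, ∀ u v, QuadraticMap.polar Q (x u) v = QuadraticMap.polar Q u (y v) := by
    intro x hx
    induction hx using Algebra.adjoin_induction with
    | mem y hy =>
      rw [Set.mem_singleton_iff] at hy
      subst hy
      refine ⟨g', hg'A, fun u v => ?_⟩
      conv_rhs => rw [← hiso, ← Module.End.mul_apply, hgg', Module.End.one_apply]
    | algebraMap c =>
      exact ⟨_, A.algebraMap_mem c, fun u v => by
        simp [Module.algebraMap_end_apply, QuadraticMap.polar_smul_left, QuadraticMap.polar_smul_right]⟩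
    | add x y _ _ hx hy =>
      obtain ⟨x', hx', ex⟩ := hx
      obtain ⟨y', hy', ey⟩ := hy
      exact ⟨x' + y', add_mem hx' hy', fun u v => by
        simp [QuadraticMap.polar_add_left, QuadraticMap.polar_add_right, ex, ey]⟩
    | mul x y hx0 hy0 hx hy =>
      obtain ⟨x', hx', ex⟩ := hx
      obtain ⟨y', hy', ey⟩ := hy
      exact ⟨x' * y', mul_mem hx' hy', fun u v => by
        rw [hcomm x' hx' y' hy', Module.End.mul_apply, Module.End.mul_apply, ex, ey]⟩
  have huniq : ∀ y y' : Module.End F V,
      (∀ u v, QuadraticMap.polar Q u (y v) = QuadraticMap.polar Q u (y' v)) → y = y' := fun y y' h =>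
    LinearMap.ext fun v => sub_eq_zero.mp (hQ.2 _ fun u => by
      show QuadraticMap.polar Q u (y v - y' v) = 0
      rw [QuadraticMap.polar_sub_right, h, sub_self])
  choose ad hadA hadE using fun x : A => hadjex x x.2
  letI cr : CommRing A := { (inferInstance : Ring A) with
    mul_comm := fun x y => Subtype.ext (hcomm _ x.2 _ y.2) }
  let φ : A →+* A :=
    { toFun := fun x => ⟨ad x, hadA x⟩
      map_one' := Subtype.ext (huniq _ _ fun u v => (hadE 1 u v).symm)
      map_mul' := fun x y => Subtype.ext (huniq _ _ fun u v => by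
        show _ = QuadraticMap.polar Q u ((ad x * ad y) v)
        rw [← hadE, hcomm _ (hadA x) _ (hadA y), Module.End.mul_apply, ← hadE, ← hadE]
        rfl)
      map_zero' := Subtype.ext (huniq _ _ fun u v => by
        show _ = QuadraticMap.polar Q u ((0 : Module.End F V) v)
        rw [← hadE]; simp [QuadraticMap.polar])
      map_add' := fun x y => Subtype.ext (huniq _ _ fun u v => by
        show _ = QuadraticMap.polar Q u ((ad x + ad y) v)
        rw [← hadE, LinearMap.add_apply, QuadraticMap.polar_add_right, ← hadE, ← hadE]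
        exact QuadraticMap.polar_add_left _ _ _ _) }
  have hφv : ∀ x u v, QuadraticMap.polar Q ((x : A).1 u) v = QuadraticMap.polar Q u ((φ x).1 v) :=
    fun x u v => hadE x u v
  have hinv : ∀ x, φ (φ x) = x := fun x => Subtype.ext (huniq _ _ fun u v => by
    rw [← hφv, QuadraticMap.polar_comm Q ((φ x).1 u), ← hφv, QuadraticMap.polar_comm Q (x.1 v)])
  have hsc : ∀ c : F, φ (algebraMap F A c) = algebraMap F A c := fun c => Subtype.ext (huniq _ _ fun u v => by
    rw [← hφv]
    simp [Module.algebraMap_end_apply, QuadraticMap.polar_smul_left, QuadraticMap.polar_smul_right])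
  have hgi : φ ⟨g, hga⟩ = (⟨g', hg'A⟩ : A) := Subtype.ext (huniq _ _ fun u v => by
    rw [← hφv]
    conv_rhs => rw [← hiso, ← Module.End.mul_apply, hgg', Module.End.one_apply])
  haveI : Finite (Module.End F V) := Finite.of_injective (fun g => (g : V → V)) DFunLike.coe_injective
  haveI : Finite A := Subtype.finite
  haveI : CharP A p := charP_of_injective_algebraMap (algebraMap F A).injective p
  set q := Fintype.card F
  have hqr : ¬ r ∣ q := fun h => hrF (by
    obtain ⟨c, hc⟩ := h
    have h1 := FiniteField.cast_card_eq_zero F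
    have h1 : ((r * c : ℕ) : F) = 0 := hc ▸ h1
    exact (Nat.prime_dvd_prime_iff_eq hr hpp).mp
      (hr.dvd_of_dvd_pow (hpf ▸ Dvd.intro c hc.symm : r ∣ p ^ (f : ℕ))) ▸ (CharP.cast_eq_zero F p))
  have hq2 : q % 2 = 1 := by
    rcases Nat.mod_two_eq_zero_or_one q with h | h
    · exact absurd ((card_field_parity (F := F)).2 h) h2
    · exact h
  have hq : 3 ≤ q := by
    have := Fintype.one_lt_card (α := F)
    omega
  have hmod : q ^ (r - 1) % r = 1 := by
    have h1 : ((q : ZMod r)) ^ (r - 1) = 1 := ZMod.pow_card_sub_one_eq_one fun h =>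
      hqr ((ZMod.natCast_eq_zero_iff _ _).mp h)
    have h2' : ((q ^ (r - 1) : ℕ) : ZMod r) = ((1 : ℕ) : ZMod r) := by push_cast; exact h1
    rw [ZMod.natCast_eq_natCast_iff', Nat.mod_eq_of_lt hr.one_lt] at h2'
    exact h2'
  have hpow : ∀ x : A, x ^ (q ^ (r - 1)) = x := by
    rintro ⟨x, hx⟩
    induction hx using Algebra.adjoin_induction with
    | mem y hy =>
      rw [Set.mem_singleton_iff] at hy
      subst hy
      refine Subtype.ext ?_
      show g ^ (q ^ (r - 1)) = g
      conv_lhs => rw [← Nat.div_add_mod (q ^ (r - 1)) r, hmod, pow_add, pow_mul, hgr, one_pow, one_mul, pow_one]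
    | algebraMap c =>
      refine Subtype.ext ?_
      show (algebraMap F (Module.End F V) c) ^ (q ^ (r - 1)) = _
      rw [← map_pow, FiniteField.pow_card_pow]
    | add x y hx hy ix iy =>
      have e : (⟨x + y, add_mem hx hy⟩ : A) = ⟨x, hx⟩ + ⟨y, hy⟩ := rfl
      rw [e]
      conv_rhs => rw [← ix, ← iy]
      rw [hpf, ← pow_mul]
      exact add_pow_char_pow _ _ p _
    | mul x y hx hy ix iy =>
      have e : (⟨x * y, mul_mem hx hy⟩ : A) = ⟨x, hx⟩ * ⟨y, hy⟩ := rfl
      rw [e, mul_pow, ix, iy]
  have hgg : (⟨g, hga⟩ : A) * φ ⟨g, hga⟩ = 1 := by rw [hgi]; exact Subtype.ext hgg'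
  haveI : Finite A := Subtype.finite
  exact ⟨Model.mk (S := A) A.val Subtype.val_injective φ hinv hsc hφv ⟨g, hga⟩ rfl
    hgg (q ^ (r - 1)) (Odd.pow (Nat.odd_iff.mpr hq2))
    (hq.trans (Nat.le_self_pow (by have := hr.two_le; omega) q)) hpow⟩

end Cfsg.Agent.KnownB.OrthCent
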